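/-
The centraliser of an involution of `J₁`: a direct product of a group of order 2 with `A₅`.
-/
import Cfsg.Agent.Lib.KnownSimple.J1.Chain
import Cfsg.Agent.Lib.KnownSimple.J1.CentData
import Cfsg.Agent.Lib.ChevSmall.Kit

set_option autoImplicit false
set_option maxRecDepth 100000

namespace Cfsg.Agent.Lib.KnownSimple.J1Cent

open Cfsg Cfsg.Spor Cfsg.Agent.Lib.Compute Cfsg.Agent.Lib.KnownSimple.PE
open Cfsg.Agent.Lib.KnownSimple.J1
open Cfsg.Agent.Lib.ChevSmall (decodeW)

/-! ### The class equation -/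

/-- The class equation in the form needed here. -/
theorem card_mul_centralizer_le {G : Type*} [Group G] [Finite G] (t : G) (n : ℕ) (h : Fin n → G)
    (hinj : ∀ i j, h i * t * (h i)⁻¹ = h j * t * (h j)⁻¹ → i = j) :
    n * Nat.card (Subgroup.centralizer ({t} : Set G)) ≤ Nat.card G := by
  have hf : Function.Injective (fun p : Fin n × Subgroup.centralizer ({t} : Set G) => h p.1 * (p.2 : G)) := by
    rintro ⟨i, c⟩ ⟨j, d⟩ hij
    simp only at hij
    have e1 : ∀ (x : G) (c : Subgroup.centralizer ({t} : Set G)), (x * c) * t * (x * c)⁻¹ = x * t * x⁻¹ := by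
      intro x c
      have h1 : t * (c : G) = (c : G) * t := (Subgroup.mem_centralizer_iff.1 c.2) t rfl
      calc (x * c) * t * (x * c)⁻¹ = x * ((c : G) * t) * ((c : G)⁻¹ * x⁻¹) := by group
        _ = x * (t * c) * ((c : G)⁻¹ * x⁻¹) := by rw [h1]
        _ = x * t * x⁻¹ := by group
    have h2 : h i * t * (h i)⁻¹ = h j * t * (h j)⁻¹ := by
      rw [← e1 (h i) c, ← e1 (h j) d, hij]
    have h3 := hinj i j h2
    subst h3
    have h4 := mul_left_cancel hij
    exact Prod.ext rfl (Subtype.ext h4)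
  have := Nat.card_le_card_of_injective _ hf
  rwa [Nat.card_prod, Nat.card_fin] at this

/-- Strict monotonicity from adjacent steps. -/
theorem lt_of_succ {k : ℕ → ℕ} {n : ℕ} (h : ∀ i, i + 1 < n → k i < k (i + 1)) {i j : ℕ} (hij : i < j)
    (hj : j < n) : k i < k j := by
  induction j with
  | zero => omega
  | succ j ih =>
    rcases Nat.lt_succ_iff_lt_or_eq.1 hij with hlt | rfl
    · exact (ih hlt (by omega)).trans (h j hj)
    · exact h i hj

/-! ### Words -/

/-- The inverse of a letter. -/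
def invL : ℕ → ℕ
  | 0 => 2
  | 1 => 3
  | 2 => 0
  | 3 => 1
  | (k + 4) => k + 4

/-- The inverse of a word. -/
def invW (W : List ℕ) : List ℕ := (W.map invL).reverse

theorem gsH_inv (a : ℕ) : gsH (invL a) = (gsH a)⁻¹ := by
  match a with
  | 0 => apply Subtype.ext; show ((ρ gX)⁻¹ : Equiv.Perm (Fin N)) = (ρ gX)⁻¹; rfl
  | 1 => apply Subtype.ext; show ((ρ gY)⁻¹ : Equiv.Perm (Fin N)) = (ρ gY)⁻¹; rfl
  | 2 => apply Subtype.ext; show (ρ gX : Equiv.Perm (Fin N)) = ((ρ gX)⁻¹)⁻¹; rw [inv_inv]
  | 3 => apply Subtype.ext; show (ρ gY : Equiv.Perm (Fin N)) = ((ρ gY)⁻¹)⁻¹; rw [inv_inv]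
  | (k + 4) => exact (inv_one (G := H)).symm

theorem wd_invW (W : List ℕ) : wd (invW W) = (wd W)⁻¹ := by
  induction W with
  | nil => exact (inv_one (G := H)).symm
  | cons a W ih =>
    have h1 : invW (a :: W) = invW W ++ [invL a] := by
      simp [invW]
    have h2 : wd (a :: W) = gsH a * wd W := by
      simp [wd]
    have h3 : wd (invW W ++ [invL a]) = wd (invW W) * gsH (invL a) := by
      simp [wd]
    rw [h1, h3, ih, h2, gsH_inv, mul_inv_rev]

theorem code_W (W : List ℕ) : E.IsCode ((wd W : H) : Equiv.Perm (Fin N)) (evW csH W) :=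
  isCode_ev gsH csH code_gsH W

/-- Equal group elements have equal codes on points. -/
theorem code_eq_of_eq {a b : G} {f g : ℕ → ℕ} (h1 : E.IsCode (a : Equiv.Perm (Fin N)) f)
    (h2 : E.IsCode (b : Equiv.Perm (Fin N)) g) (hab : a = b) {i : ℕ} (hi : i < N) : f i = g i := by
  subst hab
  have h3 := h1 (E.pt i)
  have h4 := h2 (E.pt i)
  rw [E.idx_pt i hi] at h3 h4
  rw [h3, h4]

/-! ### The involution -/

/-- The involution. -/
noncomputable def t : G := wd wT

theorem code_t : E.IsCode ((t : G) : Equiv.Perm (Fin N)) (evW csH wT) := code_W wT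

theorem t_sq : t * t = 1 :=
  eq_of_codes (coe_code_mul code_t code_t) (isCode_one E) (by decide +kernel) (by decide +kernel)

theorem t_ne : t ≠ 1 := by
  intro h
  have h1 := code_eq_of_eq code_t (isCode_one E) h (i := 0) (by norm_num)
  exact absurd h1 (by decide +kernel)

theorem orderOf_t : orderOf t = 2 := by
  haveI : Fact (Nat.Prime 2) := ⟨Nat.prime_two⟩
  exact orderOf_eq_prime (by rw [pow_two, t_sq]) t_ne

/-! ### The centraliser is small -/

/-- A conjugating word. -/
noncomputable def cw (i : ℕ) : List ℕ := decodeW 3 16 (pget 23 8388607 cwT i)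

/-- The action of a conjugate of the involution. -/
noncomputable def evC (W : List ℕ) (b : ℕ) : ℕ := evW csH W (evW csH wT (evW csH (invW W) b))

theorem code_conj (W : List ℕ) : E.IsCode ((wd W * t * (wd W)⁻¹ : G) : Equiv.Perm (Fin N)) (evC W) := by
  rw [← wd_invW]
  have h := isCode_mul (isCode_mul (code_W W) code_t) (code_W (invW W))
  exact h

/-- The key of a conjugate. -/
noncomputable def key (i : ℕ) : ℕ := evC (cw i) 10 * 3080 + evC (cw i) 0

theorem key_mono : allBelow (fun i => Nat.blt (key i) (key (i + 1))) 1462 = true := by decide +kernel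

theorem key_lt {i j : ℕ} (hij : i < j) (hj : j < 1463) : key i < key j :=
  lt_of_succ (fun i hi => by
    have h := (allBelow_iff _ _).1 key_mono i (by omega)
    exact Nat.le_of_ble_eq_true h) hij hj

theorem card_cent : Nat.card (Subgroup.centralizer ({t} : Set G)) ≤ 120 := by
  have h := card_mul_centralizer_le t 1463 (fun i => wd (cw i)) (by
    intro i j hij
    have h10 := code_eq_of_eq (code_conj (cw i)) (code_conj (cw j)) hij (i := 10) (by norm_num)
    have h0 := code_eq_of_eq (code_conj (cw i)) (code_conj (cw j)) hij (i := 0) (by norm_num)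
    have hk : key i = key j := by
      show evC (cw i) 10 * 3080 + evC (cw i) 0 = evC (cw j) 10 * 3080 + evC (cw j) 0
      rw [h10, h0]
    rcases lt_trichotomy (i : ℕ) j with h1 | h1 | h1
    · exact absurd hk (key_lt h1 j.2).ne
    · exact Fin.ext h1
    · exact absurd hk (key_lt h1 i.2).ne')
  rw [card_H] at h
  omega

/-! ### The complement -/

/-- The code of a permutation. -/
def code5 (σ : Equiv.Perm (Fin 5)) : ℕ := (σ 0).val + 5 * (σ 1).val + 25 * (σ 2).val + 125 * (σ 3).val

/-- The word of a permutation. -/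
noncomputable def tw (σ : Equiv.Perm (Fin 5)) : List ℕ := decodeW 5 20 (pget 48 281474976710655 twT (code5 σ))

/-- The section on elements. -/
noncomputable def F₀ (σ : alternatingGroup (Fin 5)) : G := wd (tw σ)

theorem code_F₀ (σ : alternatingGroup (Fin 5)) :
    E.IsCode ((F₀ σ : G) : Equiv.Perm (Fin N)) (evW csH (tw σ)) := code_W _

theorem chk_mul : ∀ σ τ : alternatingGroup (Fin 5),
    Nat.beq (evW csH (tw ↑(σ * τ)) 10) (evW csH (tw σ) (evW csH (tw τ) 10)) = true ∧
    Nat.beq (evW csH (tw ↑(σ * τ)) 0) (evW csH (tw σ) (evW csH (tw τ) 0)) = true := by decide +kernel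

/-- The section as a homomorphism. -/
noncomputable def Fh : alternatingGroup (Fin 5) →* G :=
  MonoidHom.mk' F₀ fun σ τ =>
    eq_of_codes (code_F₀ _) (coe_code_mul (code_F₀ _) (code_F₀ _))
      (Nat.eq_of_beq_eq_true (chk_mul σ τ).1) (Nat.eq_of_beq_eq_true (chk_mul σ τ).2)

theorem chk_comm : ∀ σ : alternatingGroup (Fin 5),
    Nat.beq (evW csH (tw σ) (evW csH wT 10)) (evW csH wT (evW csH (tw σ) 10)) = true ∧
    Nat.beq (evW csH (tw σ) (evW csH wT 0)) (evW csH wT (evW csH (tw σ) 0)) = true := by decide +kernel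

theorem Fh_comm (σ : alternatingGroup (Fin 5)) : Fh σ * t = t * Fh σ :=
  eq_of_codes (coe_code_mul (code_F₀ _) code_t) (coe_code_mul code_t (code_F₀ _))
    (Nat.eq_of_beq_eq_true (chk_comm σ).1) (Nat.eq_of_beq_eq_true (chk_comm σ).2)

theorem chk_inj : ∀ σ : alternatingGroup (Fin 5),
    σ = 1 ∨ ¬ (evW csH (tw σ) 10 = 10 ∧ evW csH (tw σ) 0 = 0) := by decide +kernel

theorem chk_t : ∀ σ : alternatingGroup (Fin 5),
    ¬ (evW csH (tw σ) 10 = evW csH wT 10 ∧ evW csH (tw σ) 0 = evW csH wT 0) := by decide +kernel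

theorem Fh_eq_one {σ : alternatingGroup (Fin 5)} (h : Fh σ = 1) : σ = 1 := by
  rcases chk_inj σ with h1 | h1
  · exact h1
  · exact absurd ⟨code_eq_of_eq (code_F₀ σ) (isCode_one E) h (by norm_num),
      code_eq_of_eq (code_F₀ σ) (isCode_one E) h (by norm_num)⟩ h1

theorem Fh_ne_t (σ : alternatingGroup (Fin 5)) : Fh σ ≠ t := fun h =>
  chk_t σ ⟨code_eq_of_eq (code_F₀ σ) code_t h (by norm_num),
    code_eq_of_eq (code_F₀ σ) code_t h (by norm_num)⟩

/-! ### The isomorphism -/

theorem zmod2_cases : ∀ u : ZMod 2, u = 0 ∨ u = 1 := by decide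
theorem val0 : (0 : ZMod 2).val = 0 := rfl
theorem val1 : (1 : ZMod 2).val = 1 := rfl

/-- The homomorphism from the group of order 2. -/
noncomputable def φ₂ : Multiplicative (ZMod 2) →* G where
  toFun z := t ^ (Multiplicative.toAdd z).val
  map_one' := by
    show t ^ (0 : ZMod 2).val = 1
    simp
  map_mul' := by
    intro x y
    have key : ∀ u v : ZMod 2, t ^ (u + v).val = t ^ u.val * t ^ v.val := by
      intro u v
      rcases zmod2_cases u with rfl | rfl <;> rcases zmod2_cases v with rfl | rfl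
      · rw [add_zero, val0, pow_zero, one_mul]
      · rw [zero_add, val0, val1, pow_zero, one_mul]
      · rw [add_zero, val0, val1, pow_zero, mul_one]
      · rw [show ((1 : ZMod 2) + 1) = 0 by decide, val0, val1, pow_zero, pow_one, t_sq]
    exact key _ _

theorem φ₂_cases (z : Multiplicative (ZMod 2)) : φ₂ z = 1 ∧ z = 1 ∨ φ₂ z = t := by
  have key : ∀ u : ZMod 2, (t ^ u.val = 1 ∧ u = 0) ∨ t ^ u.val = t := by
    intro u
    rcases zmod2_cases u with rfl | rfl
    · left
      rw [val0, pow_zero]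
      exact ⟨rfl, rfl⟩
    · right
      rw [val1, pow_one]
  rcases key (Multiplicative.toAdd z) with h | h
  · exact Or.inl ⟨h.1, h.2⟩
  · exact Or.inr h

/-- The homomorphism from the product. -/
noncomputable def Φ : Multiplicative (ZMod 2) × alternatingGroup (Fin 5) →* G :=
  MonoidHom.noncommCoprod φ₂ Fh (by
    intro z σ
    rcases φ₂_cases z with ⟨h, _⟩ | h
    · rw [h]
      exact Commute.one_left _
    · rw [h]
      exact (Fh_comm σ).symm)

theorem Φ_apply (z : Multiplicative (ZMod 2)) (σ : alternatingGroup (Fin 5)) : Φ (z, σ) = φ₂ z * Fh σ := rfl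

theorem Φ_inj : Function.Injective Φ := by
  rw [injective_iff_map_eq_one]
  rintro ⟨z, σ⟩ h
  rw [Φ_apply] at h
  rcases φ₂_cases z with ⟨h1, hz⟩ | h1
  · rw [h1, one_mul] at h
    rw [hz, Fh_eq_one h]
    rfl
  · rw [h1] at h
    exact absurd (by
      have h2 : Fh σ = t⁻¹ := eq_inv_of_mul_eq_one_right h
      rw [h2]
      exact inv_eq_of_mul_eq_one_left t_sq) (Fh_ne_t σ)

theorem Φ_mem (x : Multiplicative (ZMod 2) × alternatingGroup (Fin 5)) :
    Φ x ∈ Subgroup.centralizer ({t} : Set G) := by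
  rw [Subgroup.mem_centralizer_iff]
  rintro _ rfl
  obtain ⟨z, σ⟩ := x
  rw [Φ_apply]
  rcases φ₂_cases z with ⟨h1, _⟩ | h1
  · rw [h1, one_mul]
    exact (Fh_comm σ).symm
  · rw [h1, mul_assoc t (Fh σ) t, Fh_comm σ]

theorem card_dom : Nat.card (Multiplicative (ZMod 2) × alternatingGroup (Fin 5)) = 120 := by
  rw [Nat.card_prod, nat_card_alternatingGroup]
  have h1 : Nat.card (Multiplicative (ZMod 2)) = 2 := by
    rw [Nat.card_congr Multiplicative.toAdd]
    simp
  rw [h1]
  simp [Nat.factorial]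

/-- The centraliser in the permutation model. -/
theorem main_G : Nonempty (↥(Subgroup.centralizer ({t} : Set G)) ≃* Multiplicative (ZMod 2) × ↥(alternatingGroup (Fin 5))) := by
  let Φ' := Φ.codRestrict (Subgroup.centralizer ({t} : Set G)) Φ_mem
  have hinj : Function.Injective Φ' := fun x y h => Φ_inj (congrArg Subtype.val h)
  have hb : Function.Bijective Φ' := hinj.bijective_of_nat_card_le (by rw [card_dom]; exact card_cent)
  exact ⟨(MulEquiv.ofBijective Φ' hb).symm⟩

/-- Transport of the statement along an isomorphism. -/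
theorem transport {A B K : Type*} [Group A] [Group B] [Group K] (e : A ≃* B) (b : B) (hb : orderOf b = 2)
    (h : Nonempty (↥(Subgroup.centralizer ({b} : Set B)) ≃* K)) :
    ∃ a : A, orderOf a = 2 ∧ Nonempty (↥(Subgroup.centralizer ({a} : Set A)) ≃* K) := by
  obtain ⟨m⟩ := h
  refine ⟨e.symm b, by rw [MulEquiv.orderOf_eq, hb], ⟨?_⟩⟩
  have h1 : (Subgroup.centralizer ({e.symm b} : Set A)).map e.toMonoidHom = Subgroup.centralizer ({b} : Set B) := by
    ext y
    simp only [Subgroup.mem_map, Subgroup.mem_centralizer_iff, Set.mem_singleton_iff, forall_eq]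
    constructor
    · rintro ⟨x, hx, rfl⟩
      have := congrArg e hx
      simpa using this
    · intro hy
      refine ⟨e.symm y, ?_, by simp⟩
      apply e.injective
      simpa using hy
  exact ((e.subgroupMap _).trans (MulEquiv.subgroupCongr h1)).trans m

theorem main : ∃ t : ↥J1, orderOf t = 2 ∧
    Nonempty (↥(Subgroup.centralizer ({t} : Set ↥J1)) ≃* Multiplicative (ZMod 2) × ↥(alternatingGroup (Fin 5))) :=
  transport (equivRange ρ ρ_inj) t orderOf_t main_G

end Cfsg.Agent.Lib.KnownSimple.J1Cent
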